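import Cfsg.Agent.Lib.Helper3.L211a.Main
import Cfsg.Agent.Lib.Helper3.M24d
import Cfsg.Agent.Lib.Helper3.Graph6
import Cfsg.Agent.Lib.Helper3.MatChk
import Cfsg.Agent.Lib.Helper3.ActGraph
import Cfsg.Agent.S0368
import Cfsg.Agent.S0387

/-!
# The stabiliser of a dodecad, a point on it and a point off it
-/

set_option autoImplicit false
set_option maxRecDepth 100000

namespace Cfsg.Agent.Lib.Helper3.L211m

open Cfsg Cfsg.Agent.Lib.Helper11 Cfsg.Agent.Lib.Helper3 MulAction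
open scoped Pointwise

set_option maxHeartbeats 0

def m0 : ℕ := 28637
def w1 : List ℕ := [29, 23, 21, 11, 14, 10, 10, 0, 2, 0, 3]
def w2 : List ℕ := [30, 23, 17, 21, 19, 11, 16, 13, 7, 9, 2, 0, 0, 2]
def ptN : List ℕ := [11, 8, 3, 7, 14, 4, 9, 10, 6, 13, 2]
def IMG1 : List ℕ := [2, 10, 0, 6, 8, 5, 3, 7, 4, 9, 1]
def IMG2 : List ℕ := [0, 5, 8, 9, 3, 7, 6, 1, 10, 4, 2]
def TR : List (List ℕ) := [
  [],
  [],
  [],
  [],
  [],
  [29,23,25,17,21,20,11,16,13,8,10,1,2,1,4],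
  [],
  [],
  [],
  [],
  [],
  [],
  [28,23,31,25,13,13,8,0,2,0,4,4],
  [],
  [],
  [23,31,25,17,22,11,16,9,9,0,2,0,3],
  [24,17,22,15,13,8,10,8,1,2,1],
  [28,25,20,21,14,11,15,8,8],
  [28,23,25,14,11,7,10,5,0,2,0,4,0,3],
  [29,25,21,19,15,13,7,10,8,0,2,0,4,4],
  [23,25,22,12,13,10,1,2,1],
  [23,31,20,15,7,7,0,2,0,4,4],
  [30,31,17,22,14,10,7,5,0,2,0,4,0,3],
  [28,23,31,25,20,11,8,8,9,6,2,0,0],
  [],
  [],
  [],
  [],
  [],
  [],
  [],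
  [],
  [],
  [],
  [],
  [],
  [],
  [],
  [],
  [],
  [],
  [],
  [],
  [],
  [],
  [],
  [],
  [],
  [],
  [30,31,25,17,19,19,15,13,10,7,7,5,1,6,2,0,0,3],
  [],
  [],
  [],
  [31,24,18,19,21,13,5,5,1,2,0,4,4],
  [],
  [],
  [],
  [],
  [],
  [],
  [23,18,19,21,14,16,9,9,9,1,1,2,0,4,0,3],
  [],
  [],
  [28,31,25,21,19,12,13,7,10,8,9,5,1,2,1,4],
  [25,21,15,13,7,10,8,9,5,5,1,1,2,0,0,2],
  [29,23,20,21,12,13,15,13,8,8,9,1,1,2,0,4,0,3],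
  [29,31,24,18,22,11,10,6,0,0,2,0,0,0],
  [30,22,11,14,9,1,1,2,0,4,0,3],
  [30,24,17,14,11,15,9,9,5,5,1,1,2,0,0,2],
  [29,23,22,14,11,7,10,8,5,0,2,0,4,1],
  [30,23,31,25,20,20,15,13,10,5,0,2,0,3],
  [30,31,24,18,21,14,8,10,8,5,1,6,2,0,0,3],
  [],
  [30,23,24,18,19,15,13,12,7,7,6,2,1,4],
  [],
  [],
  [],
  [23,17,21,20,13,10,7,5,5,1,5,2,0,3],
  [],
  [],
  [],
  [],
  [],
  [],
  [30,24,17,21,11,16,13,9,6,6,0],
  [],
  [],
  [30,23,24,17,21,12,13,15,13,8,8,9,5,5,1,2,0,4,0,3],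
  [28,31,24,22,15,15,10,7,6,0,0,2,0,0,3],
  [23,18,11,14,7,6,2,1],
  [28,23,31,25,17,19,19,9,5,5,1,5,2,0],
  [23,31,24,21,15,8,10,8,6,6,2,0,0,2],
  [31,18,19,15,14,7,10,8,9,6,0,0,2,0,0],
  [23,25,15,14,7,10,8,9,6,0,0,2,0,0,3],
  [30,23,17,21,15,13,10,10,8,6,2,1],
  [30,31,24,22,20,15,15,8,8,9,6,2,1,4],
  [],
  [29,23,31,18,19,21,12,8,9,6,6,2,1,4],
  [],
  [],
  [],
  [30,23,31,25,18,11,14,8,9,6,0,0,2,0],
  [],
  [],
  [],
  [],
  [],
  [],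
  [30,31,24,20,20,14,16,5,1,2,1],
  [],
  [],
  [29,23,31,22,20,15,9,5,0,2,0,0,0],
  [30,31,25,18,21,14,16,7,5,0,2,0,0,0],
  [30,31,24,18,21,10,7,7,6,0,0,2,0],
  [29,31,24,17,19,19,13,8,10,5,1,6,0,2,0,0],
  [30,23,25,18,22,14,11,14,7,10,8,5,0,2,0,0,0],
  [29,31,25,20,21,13,13,5,1,2,0,3],
  [23,31,17,19,14,11,7,10,8,9,6,0,0,2,0],
  [30,31,20,21,15,7,10,8,5,1,2,0,3],
  [29,23,24,18,13,7,10,5,5,1,2,0,0,2],
  [],
  [],
  [],
  [],
  [],
  [],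
  [],
  [],
  [],
  [],
  [],
  [],
  [],
  [],
  [],
  [],
  [],
  [],
  [],
  [],
  [],
  [],
  [],
  [],
  [],
  [30,31,24,17,21,15,15,7,5,1,2,0,0,3],
  [],
  [],
  [],
  [28,22,15,14,6,2,0,3],
  [],
  [],
  [],
  [],
  [],
  [],
  [29,31,24,22,11,16,10,5,1,6,2,0,4,1],
  [],
  [],
  [30,23,31,24,17,22,12,13,7,7,5,1,6,2,0,0],
  [28,31,25,21,19,15,10,7,6,0,0,2,1],
  [28,23,31,24,17,19,19,13,13,7,0,2,1,4],
  [23,17,19,13,7,7,6,2,0,3],
  [31,24,17,22,15,7,9,5,1,6,2,0,4,1],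
  [30,31,22,20,11,10,7,7,6,0,0,2,0,4,0,3],
  [30,23,24,21,13,7,9,5,5,2,0,0,0],
  [30,23,17,19,12,13,15,13,7,10,8,9,6,2,0,3],
  [30,23,31,25,18,15,14,7,6,1,2,0,0,2],
  [],
  [30,23,31,25,22,11,16,7,9,5,5,1,1],
  [],
  [],
  [],
  [29,23,31,17,21,11,16,8,5,5,1,1],
  [],
  [],
  [],
  [],
  [],
  [],
  [30,31,25,20,14,11,8,9,5,1,6,2,0],
  [],
  [],
  [28,31,25,20,21,15,7,7,6,1,2,0,4,4],
  [30,23,31,20,15,14,9,9,5,5,2,0,0],
  [29,23,18,15,7,9,5,1,6,0,2,1],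
  [29,23,31,25,18,19,21,13,13,9,9,9,5,1,6,0,2,1],
  [29,23,31,25,18,19,21,14,16,8,8,5,5,2,1,4],
  [30,23,31,18,11,16,13,7,9,5,0,2,0,0,3],
  [29,23,25,17,21,19,11,16,7,10,8,9,5,1,6,0,2,0,3],
  [30,31,25,18,19,11,16,7,7,5,1,6,0,2,0,3],
  [29,23,20,20,11,16,13,10,7,5,5,2,0,0],
  [],
  [25,18,19,8,10,8,5,1,1,2,0,4,4],
  [],
  [],
  [],
  [30,23,31,17,19,19,13,13,10,7,1,1,2,0,4,1],
  [],
  [],
  [],
  [],
  [],
  [],
  [30,25,20,20,14,8,10,1,1,2,1,4],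
  [],
  [],
  [31,25,17,11,7,10,8,5,1,1,2,0,0],
  [29,20,20,12,13,8,8,9,5,1,1,2,0,4,4],
  [28,22,12,13,15,7,10,8,9,1,1,2,0,0,0],
  [28,31,25,18,14,11,14,8,9,1,1,2,0,0,0],
  [28,23,24,18,19,14,11,10,10,8,5,1,1,2,0,4,4],
  [23,24,17,21,20,14,8,10,6,6,2,0,3],
  [30,23,31,24,17,21,19,14,11,15,10,10,8,6,6,2,0,3],
  [28,17,19,19,12,8,10,5,1,1,2,0,0],
  [28,24,18,15,14,6,6,0,2,0,4,0,3],
  [],
  [30,31,17,21,14,11,15,9,9,0,0,2,1,4],
  [],
  [],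
  [],
  [29,31,20,21,15,14,7,10,6,6,2,0,4,0,3],
  [],
  [],
  [],
  [],
  [],
  [],
  [30,31,22,14,11,15,7,10,8,6,6,2,0,4,0,3],
  [],
  [],
  [23,25,21,14,8,9,5,1,1,2,0],
  [29,31,25,17,21,20,12,13,15,8,8,5,5,1,1,2,0,3],
  [25,17,22,15,8,5,5,1,1,2,0,4,1],
  [28,23,31,18,19,13,10,7,5,0,2,0,0,2],
  [23,31,25,22,20,15,13,12,7,10,5,0,2,0,0,2],
  [29,23,31,17,21,14,16,7,10,8,9,5,5,1,1,2,0,4,1],
  [30,20,20,14,10,7,7,5,1,6,2,1],
  [29,31,24,21,12,13,15,13,9,9,9,0,0,2,1,4],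
  [25,17,19,11,10,6,6,2,0,4,4],
  [],
  [30,23,24,21,19,11,14,8,8,10,6,0],
  [],
  [],
  [],
  [29,31,25,17,21,12,7,10,8,0,0,2,0,0],
  [],
  [],
  [],
  [],
  [],
  [],
  [30,17,19,11,16,13,8,8,1,2,0,4,4],
  [],
  [],
  [17,21,11,14,10,10,5,2,0,0,2],
  [29,31,24,17,19,19,15,13,7,10,8,9,1,2,0,4,4],
  [29,31,25,21,14,10,10,5,1,6,2,0,3],
  [31,17,19,15,13,7,7,5,2,0,0,2],
  [28,20,11,14,8,8,9,5,0,5,2,0,4,1],
  [23,24,22,14,16,8,5,2,0,0,2],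
  [30,31,25,18,14,16,8,8,10,5,2,0,0,2],
  [28,24,21,15,10,10,8,5,5,2,1],
  [23,24,14,11,7,9,5,5,1,2,1,4],
  [],
  [30,23,31,25,18,19,12,13,15,13,9,9,6,0,5,2,0,3],
  [],
  [],
  [],
  [29,23,24,17,12,13,15,13,9,5,1,1,2,1],
  [],
  [],
  [],
  [],
  [],
  [],
  [29,23,31,25,20,11,8,8,5,5,1,1,2,0,0],
  [],
  [],
  [18,19,21,11,14,8,5,1,1,2,1],
  [29,23,31,17,22,11,16,7,10,8,9,0,0,2,0],
  [31,24,20,12,9,9,9,0,0,2,0],
  [21,19,15,13,7,0,0,2,0],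
  [31,25,21,12,13,15,13,8,8,10,6,6,0,2,0,4,4],
  [29,23,31,25,18,21,12,13,15,13,8,10,8,5,5,1,5,2,0,0,2],
  [30,31,25,22,20,13,10,7,7,0,0,2,0],
  [29,23,17,21,13,8,10,8,6,0,2,1,4],
  [30,23,31,24,17,12,13,15,13,8,5,5,1,5,2,0,0,2],
  [],
  [],
  [],
  [],
  [],
  [],
  [],
  [],
  [],
  [],
  [],
  [],
  [],
  [],
  [],
  [],
  [],
  [],
  [],
  [],
  [],
  [],
  [],
  [],
  [],
  [25,20,20,14,11,7,10,8,9,6,6,0,2,0,0],
  [],
  [],
  [],
  [28,31,25,17,19,19,15,13,9,5,5,2,0,4,4],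
  [],
  [],
  [],
  [],
  [],
  [],
  [29,17,22,12,13,15,13,8,6,1,2,0,4,0,3],
  [],
  [],
  [30,24,14,11,14,8,10,8,1,1,2,0,0,3],
  [31,25,17,19,12,13,8,9,5,5,2,0,4,4],
  [29,31,17,21,19,15,15,10,10,8,0,0,2,1],
  [30,24,17,19,19,11,7,10,8,5,5,2,0,4,4],
  [28,24,22,20,15,13,8,8,10,5,5,2,0,0,2],
  [28,31,25,18,14,11,15,8,10,6,1,2,0,4,0,3],
  [29,23,31,25,18,19,14,11,15,7,10,8,6,6,0,2,1,4],
  [28,31,20,15,14,5,1,1,2,0,3],
  [25,11,16,7,7,1,1,2,0,0,3],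
  [],
  [30,23,31,18,19,21,15,8,9,6,2,0,4,0,3],
  [],
  [],
  [],
  [30,31,25,21,11,8,10,5,5,1,1,2,1],
  [],
  [],
  [],
  [],
  [],
  [],
  [29,23,25,17,19,11,14,9,6,2,0,4,0,3],
  [],
  [],
  [29,23,21,15,8,6,1,2,1,4],
  [29,31,17,19,15,14,5,5,1,1,2,1],
  [30,18,19,21,11,14,8,8,10,6,6,0,2,0],
  [30,23,31,25,17,19,14,16,7,7,6,0,2,0,0],
  [29,31,25,17,21,19,8,9,6,6,0,2,0],
  [25,20,21,14,11,15,7,6,6,2,0,4,1],
  [23,24,18,22,12,13,15,7,9,6,6,2,0,0,0],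
  [30,23,24,20,21,14,16,7,9,5],
  [23,24,21,19,12,6,0,2,0,0],
  [],
  [],
  [],
  [],
  [],
  [],
  [],
  [],
  [],
  [],
  [],
  [],
  [],
  [],
  [],
  [],
  [],
  [],
  [],
  [],
  [],
  [],
  [],
  [],
  [],
  [],
  [],
  [],
  [],
  [],
  [],
  [],
  [],
  [],
  [],
  [],
  [],
  [],
  [],
  [],
  [],
  [],
  [],
  [],
  [],
  [],
  [],
  [],
  [],
  [],
  [],
  [],
  [],
  [],
  [],
  [],
  [],
  [],
  [],
  [],
  [],
  [],
  [],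
  [],
  [],
  [],
  [],
  [],
  [],
  [],
  [],
  [],
  [],
  [],
  [],
  [],
  [],
  [],
  [],
  [],
  [],
  [],
  [],
  [],
  [],
  [],
  [],
  [],
  [],
  [],
  [],
  [],
  [],
  [],
  [],
  [],
  [],
  [],
  [],
  [],
  [],
  [],
  [],
  [],
  [],
  [],
  [],
  [],
  [],
  [],
  [],
  [],
  [],
  [],
  [],
  [],
  [],
  [],
  [],
  [],
  [],
  [],
  [],
  [],
  [],
  [],
  [],
  [],
  [],
  [],
  [],
  [],
  [],
  [],
  [],
  [],
  [],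
  [],
  [],
  [],
  [],
  [],
  [],
  [],
  [],
  [],
  [],
  [],
  [],
  [],
  [],
  [],
  [],
  [],
  [],
  [],
  [],
  [],
  [],
  [],
  [],
  [],
  [],
  [],
  [],
  [],
  [],
  [],
  [],
  [],
  [],
  [],
  [],
  [],
  [],
  [],
  [],
  [],
  [],
  [],
  [],
  [],
  [],
  [],
  [],
  [],
  [],
  [],
  [],
  [],
  [],
  [],
  [],
  [],
  [],
  [],
  [],
  [],
  [],
  [],
  [],
  [],
  [],
  [],
  [],
  [],
  [],
  [],
  [],
  [],
  [],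
  [],
  [],
  [],
  [],
  []]

theorem d0_mem : fs m0 ∈ dodecads := fs_mem_dodecads (by decide +kernel) (by decide +kernel)

/-- the word preserves the dodecad -/
def presChk (w : List ℕ) : Bool :=
  (List.range 24).all fun i => m0.testBit (ev allT w i) == m0.testBit i

/-- the element of the Mathieu group given by a word -/
noncomputable def wM (w : List ℕ) : M24 := ⟨W w, H3_le_M24 (W_mem w)⟩

theorem wM_smul (w : List ℕ) (h : presChk w = true) : wM w • fs m0 = fs m0 := by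
  have h1 : ∀ p, W w p ∈ fs m0 ↔ p ∈ fs m0 := by
    intro p
    rw [mem_fs, mem_fs, idx_W]
    have := (List.all_eq_true.1 h) (idx p) (List.mem_range.2 (idx_lt p))
    rw [beq_iff_eq] at this
    rw [this]
  ext a
  rw [← Finset.inv_smul_mem_iff]
  have h2 := h1 ((W w)⁻¹ a)
  have h3 : W w ((W w)⁻¹ a) = a := by simp
  rw [h3] at h2
  exact h2.symm

theorem wM_apply (w : List ℕ) {i j : ℕ} (hi : i < 24) (h : ev allT w i = j) : wM w • pt i = pt j :=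
  W_apply hi h

/-- the group -/
abbrev M0 : Subgroup M24 := stabilizer M24 (fs m0) ⊓ stabilizer M24 (pt 0) ⊓ stabilizer M24 (pt 1)

/-- the stabiliser of the dodecad and the first point -/
abbrev A0 : Subgroup M24 := stabilizer M24 (fs m0) ⊓ stabilizer M24 (pt 0)

def trChk : Bool :=
  (List.range 24).all fun j => (List.range 24).all fun j' =>
    !(m0.testBit j && !m0.testBit j') ||
      (presChk (TR.getD (24 * j + j') []) && ev allT (TR.getD (24 * j + j') []) j == 0 &&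
        ev allT (TR.getD (24 * j + j') []) j' == 1)

theorem trChk_ok : trChk = true := by decide +kernel

theorem tr_spec (a b : GolayPt) (ha : a ∈ fs m0) (hb : b ∉ fs m0) :
    ∃ t : M24, t • fs m0 = fs m0 ∧ t • a = pt 0 ∧ t • b = pt 1 := by
  have h := trChk_ok
  simp only [trChk, List.all_eq_true, List.mem_range] at h
  have h1 := h (idx a) (idx_lt a) (idx b) (idx_lt b)
  rw [mem_fs] at ha hb
  have h2 : (m0.testBit (idx a) && !m0.testBit (idx b)) = true := by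
    rw [ha]
    simpa using hb
  rw [h2] at h1
  simp only [Bool.not_true, Bool.false_or, Bool.and_eq_true, beq_iff_eq] at h1
  refine ⟨wM (TR.getD (24 * idx a + idx b) []), wM_smul _ h1.1.1, ?_, ?_⟩
  · have := wM_apply _ (idx_lt a) h1.1.2
    rwa [pt_idx] at this
  · have := wM_apply _ (idx_lt b) h1.2
    rwa [pt_idx] at this

theorem pt0_mem : pt 0 ∈ fs m0 := by
  rw [mem_fs, idx_pt (by norm_num)]
  decide

theorem pt1_not_mem : pt 1 ∉ fs m0 := by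
  rw [mem_fs, idx_pt (by norm_num)]
  decide

theorem orbit_eq : orbit A0 (pt 1) = (((fs m0)ᶜ : Finset GolayPt) : Set GolayPt) := by
  ext b
  simp only [Finset.coe_compl, Set.mem_compl_iff, Finset.mem_coe]
  constructor
  · rintro ⟨a, rfl⟩ hb
    have ha : a.1 • fs m0 = fs m0 := a.2.1
    have hb' : a.1 • pt 1 ∈ a.1 • fs m0 := by rw [ha]; exact hb
    rw [Finset.smul_mem_smul_finset_iff] at hb'
    exact pt1_not_mem hb'
  · intro hb
    obtain ⟨t, t1, t2, t3⟩ := tr_spec (pt 0) b pt0_mem hb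
    refine ⟨⟨t, t1, t2⟩⁻¹, ?_⟩
    rw [inv_smul_eq_iff]
    exact t3.symm

theorem card_M0 : Nat.card M0 = 660 := by
  have hA : Nat.card A0 = 7920 := Cfsg.Agent.S0387.result (fs m0) d0_mem (pt 0) pt0_mem
  have hle : M0 ≤ A0 := inf_le_left
  have h1 : M0.subgroupOf A0 = stabilizer A0 (pt 1) := by
    ext a
    rw [Subgroup.mem_subgroupOf, mem_stabilizer_iff, Subgroup.mem_inf]
    constructor
    · rintro ⟨_, h⟩
      exact h
    · intro h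
      exact ⟨a.2, h⟩
  have h2 := index_stabilizer A0 (pt 1)
  rw [orbit_eq, Set.ncard_coe_finset, Finset.card_compl, card_fs] at h2
  have h24 : Fintype.card GolayPt = 24 := by decide
  have h12 : pc m0 = 12 := by decide +kernel
  rw [h24, h12] at h2
  have h4 := Subgroup.index_mul_card (stabilizer A0 (pt 1))
  rw [h2, hA, ← h1, Nat.card_congr (Subgroup.subgroupOfEquivOfLe hle).toEquiv] at h4
  omega

theorem mem_M0 (w : List ℕ) (h : presChk w = true) (h0 : ev allT w 0 = 0) (h1 : ev allT w 1 = 1) :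
    wM w ∈ M0 :=
  ⟨⟨wM_smul w h, wM_apply w (by norm_num) h0⟩, wM_apply w (by norm_num) h1⟩

noncomputable def gA : M0 := ⟨wM w1, mem_M0 w1 (by decide +kernel) (by decide +kernel) (by decide +kernel)⟩
noncomputable def gB : M0 := ⟨wM w2, mem_M0 w2 (by decide +kernel) (by decide +kernel) (by decide +kernel)⟩

noncomputable def vM (l : ℕ) : M0 := if l = 1 then gA else if l = 2 then gB else 1

def pp : Fin 11 → GolayPt := fun i => pt (ptN.getD i 0)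

def wChk (w IMG : List ℕ) (l : ℕ) : Prop :=
  ∀ i < 11, IMG.getD i 0 < 11 ∧ ptN.getD i 0 < 24 ∧
    ev allT w (ptN.getD i 0) = ptN.getD (IMG.getD i 0) 0 ∧
    Nat.beq (applyWord (ntOf L211a.ntl) [l] (Nat.pow 2 (IMG.getD i 0))) (Nat.pow 2 i) = true

noncomputable instance (w IMG : List ℕ) (l : ℕ) : Decidable (wChk w IMG l) := by
  unfold wChk
  infer_instance

theorem mem_of_chk (w IMG : List ℕ) (l : ℕ) (h : wChk w IMG l) (hw : wM w ∈ M0) :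
    ((⟨wM w, hw⟩ : M0), vL L211a.ntl L211a.deg l) ∈ actGraph M0 pp := by
  intro i
  obtain ⟨h1, h2, h3, h4⟩ := h i i.2
  have h5 := L211a.setup.img_of_chk l i (IMG.getD i 0) i.2 h1 h4
  show W w (pp i) = pp (vL L211a.ntl L211a.deg l i)
  have h6 : vL L211a.ntl L211a.deg l i = ⟨IMG.getD i 0, h1⟩ := h5
  rw [h6]
  exact W_apply h2 h3

theorem M0_iso : Nonempty (M0 ≃* lgrp (vL L211a.ntl L211a.deg) [1, 2]) := by
  apply iso_of_graph_simple_card (actGraph M0 pp) vM (vL L211a.ntl L211a.deg) [1, 2] _ L211a.simple 660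
    (by norm_num) L211a.card_eq card_M0
  · refine ⟨vL L211a.ntl L211a.deg 1, mem_lgrp _ (by simp), ?_⟩
    intro h
    have h1 := h 0
    have h2 : wChk w1 IMG1 1 := by decide +kernel
    obtain ⟨h3, _, _, h4⟩ := h2 0 (by norm_num)
    have h5 := L211a.setup.img_of_chk 1 0 (IMG1.getD 0 0) (by norm_num [L211a.deg]) h3 h4
    have h6 : vL L211a.ntl L211a.deg 1 (0 : Fin 11) = ⟨IMG1.getD 0 0, h3⟩ := h5
    simp only [one_smul] at h1
    rw [h6] at h1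
    have h7 := congrArg idx h1
    revert h7
    simp only [pp]
    rw [idx_pt (by decide), idx_pt (by decide)]
    decide
  · intro x hx
    simp only [List.mem_cons, List.mem_nil_iff, or_false] at hx
    rcases hx with rfl | rfl
    · exact mem_of_chk w1 IMG1 1 (by decide +kernel) _
    · exact mem_of_chk w2 IMG2 2 (by decide +kernel) _

/-- conjugate stabilisers -/
theorem stab3_conj {G X Y Z : Type*} [Group G] [MulAction G X] [MulAction G Y] [MulAction G Z] (g : G)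
    (x : X) (y : Y) (z : Z) :
    Nonempty (↥(stabilizer G x ⊓ stabilizer G y ⊓ stabilizer G z) ≃*
      ↥(stabilizer G (g • x) ⊓ stabilizer G (g • y) ⊓ stabilizer G (g • z))) := by
  have hinj : Function.Injective (MulAut.conj g).toMonoidHom := (MulAut.conj g).injective
  have h : (stabilizer G x ⊓ stabilizer G y ⊓ stabilizer G z).map (MulAut.conj g).toMonoidHom =
      stabilizer G (g • x) ⊓ stabilizer G (g • y) ⊓ stabilizer G (g • z) := by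
    rw [Subgroup.map_inf _ _ _ hinj, Subgroup.map_inf _ _ _ hinj, stabilizer_smul_eq_stabilizer_map_conj,
      stabilizer_smul_eq_stabilizer_map_conj, stabilizer_smul_eq_stabilizer_map_conj]
  exact ⟨(MulEquiv.subgroupMap (MulAut.conj g) _).trans (MulEquiv.subgroupCongr h)⟩

theorem stab_iso (d : Finset GolayPt) (hd : d ∈ dodecads) (p q : GolayPt) (hp : p ∈ d) (hq : q ∉ d) :
    Nonempty (↥(stabilizer M24 d ⊓ stabilizer M24 p ⊓ stabilizer M24 q) ≃* M0) := by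
  obtain ⟨g, hg⟩ := Cfsg.Agent.S0368.result d (fs m0) hd d0_mem
  have hp' : g • p ∈ fs m0 := by
    rw [← hg, Finset.smul_mem_smul_finset_iff]
    exact hp
  have hq' : g • q ∉ fs m0 := by
    rw [← hg, Finset.smul_mem_smul_finset_iff]
    exact hq
  obtain ⟨t, t1, t2, t3⟩ := tr_spec _ _ hp' hq'
  obtain ⟨e⟩ := stab3_conj (t * g) d p q
  rw [mul_smul, mul_smul, mul_smul, hg, t1, t2, t3] at e
  exact ⟨e⟩

end Cfsg.Agent.Lib.Helper3.L211m
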